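import Cfsg.Agent.Lib.Helper94.SpRow.Base
import Cfsg.Agent.Lib.Helper99.Sp.E3c

set_option autoImplicit false

/-! # Sp rows, E4 (helper94's farm): over `F_3` the group `Sp ⊗ O_3` is imprimitive (helper99) -/

namespace Cfsg.Agent.Lib.Helper99.SpRow

open Cfsg Cfsg.Geo Matrix Cfsg.Agent.Lib.Helper94.SpRow
open scoped MatrixGroups

variable {F : Type*} [Field F] {m : ℕ}

theorem tensor_three_decomp [Fintype F] (hm : 1 ≤ m) (hq : Fintype.card F = 3) {n₁ : ℕ}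
    (e : (Fin m ⊕ Fin m) ≃ Fin n₁ × Fin 3) (P : GL (Fin m ⊕ Fin m) F)
    (f₁ : (Fin n₁ → F) → (Fin n₁ → F) → F) (f₂ : (Fin 3 → F) → (Fin 3 → F) → F)
    (h1 : IsSymplecticForm f₁) (h2 : IsSymmetricForm f₂)
    (hs : IsTensorFormStructure id (sympForm m F) f₁ f₂ e P) :
    ∃ D : Fin 3 → Submodule F (Fin m ⊕ Fin m → F),
      IsNondegenerateMDecomposition (sympForm m F) n₁ D ∧
      tensorProductSubgroup n₁ 3 e P ⊓ spGL m F ≤ decompositionStabilizer D :=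
  Cfsg.Agent.Lib.Helper99.Sp.sp_tensor_three hq hm e P f₁ f₂ h1 h2 hs

end Cfsg.Agent.Lib.Helper99.SpRow
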