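import Cfsg.Agent.Lib.Helper94.SpRow.Base
import Cfsg.Agent.Lib.Helper99.Sp.E1k

set_option autoImplicit false

/-! # Sp rows, N7 (helper94's farm): `Sp` is not contained in a tensor wreath subgroup (helper99) -/

namespace Cfsg.Agent.Lib.Helper99.SpRow

open Cfsg Cfsg.Geo Matrix Cfsg.Agent.Lib.Helper94.SpRow
open scoped MatrixGroups

variable {F : Type*} [Field F] {m : ℕ}

theorem sp_not_le_wreath (hm : 1 ≤ m) {k t : ℕ} (ht : 2 ≤ t)
    (e : (Fin m ⊕ Fin m) ≃ (Fin t → Fin k)) (P : GL (Fin m ⊕ Fin m) F)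
    (f₁ : (Fin k → F) → (Fin k → F) → F) (h1 : IsSymplecticForm f₁)
    (hs : IsTensorPowerFormStructure id (sympForm m F) f₁ e P) :
    ¬ spGL m F ≤ tensorWreathSubgroup k t e P := by
  have hcard : m + m = k ^ t := by
    have := Fintype.card_congr e
    simpa using this
  have hk : 2 ≤ k := by
    by_contra hk
    have : k = 0 ∨ k = 1 := by omega
    rcases this with rfl | rfl
    · rw [zero_pow (by omega)] at hcard; omega
    · rw [one_pow] at hcard; omega
  exact Cfsg.Agent.Lib.Helper99.Sp.sp_not_le_wreath hk ht e P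

end Cfsg.Agent.Lib.Helper99.SpRow
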